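import Cfsg.Agent.FGS.FA.Defs

/-!
# Anticentral elements: the wreath lemma
-/

set_option autoImplicit false
set_option linter.unusedSectionVars false
open Subgroup

namespace CL.FA.WrB

section Act

variable {G Ω : Type*} [Group G] [Finite G] [Finite Ω] [MulAction G Ω] {a x y : G} {m : ℕ}

theorem pw {Φ : Set Ω} {g : G} (h : ∀ φ ∈ Φ, g • φ ∈ Φ) (i : ℕ) : ∀ φ ∈ Φ, g ^ i • φ ∈ Φ := by
  induction i with
  | zero => intro φ hφ; simpa using hφ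
  | succ i ih => intro φ hφ; rw [pow_succ', mul_smul]; exact h _ (ih φ hφ)

theorem act {Φ T : Set Ω} (e : y * a * y⁻¹ = x * a) (hy : ∀ φ ∈ Φ, y • φ ∈ Φ) (ha : ∀ φ ∈ Φ, a • φ ∈ Φ)
    (hx' : ∀ φ ∈ Φ, x • φ ∈ Φ) (hx : ∀ φ ∈ Φ, φ ∉ T → x • φ = φ) (TΦ : T ⊆ Φ) (m0 : 0 < m)
    (disj : ∀ i, 0 < i → i < m → ∀ φ ∈ T, a ^ i • φ ∉ T) :
    (∃ φ ∈ T, a ^ m • φ = φ) ↔ ∃ φ ∈ T, (x * a ^ m) • φ = φ := by
  have hb : ∀ φ ∈ Φ, (x * a) • φ ∈ Φ := fun φ hφ => by rw [mul_smul]; exact hx' _ (ha φ hφ)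
  have hy' : ∀ φ ∈ Φ, y⁻¹ • φ ∈ Φ := fun φ hφ => by
    have e1 : y⁻¹ = y ^ (orderOf y - 1) := by
      rw [inv_eq_iff_mul_eq_one, ← pow_succ', Nat.sub_add_cancel (orderOf_pos y), pow_orderOf_eq_one]
    rw [e1]; exact pw hy _ φ hφ
  have em : (x * a) ^ m = y * a ^ m * y⁻¹ := by rw [← e, conj_pow]
  set Fa : Set Ω := {φ | φ ∈ Φ ∧ a ^ m • φ = φ} with hFa
  set Fb : Set Ω := {φ | φ ∈ Φ ∧ (x * a) ^ m • φ = φ} with hFb
  have c1 : Fa.ncard ≤ Fb.ncard := by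
    refine Set.ncard_le_ncard_of_injOn (fun φ => y • φ) (fun φ hφ => ⟨hy φ hφ.1, ?_⟩)
      (fun u _ v _ h => smul_left_cancel y h)
    rw [em, mul_smul, mul_smul, inv_smul_smul, hφ.2]
  have c2 : Fb.ncard ≤ Fa.ncard := by
    refine Set.ncard_le_ncard_of_injOn (fun φ => y⁻¹ • φ) (fun φ hφ => ⟨hy' φ hφ.1, ?_⟩)
      (fun u _ v _ h => smul_left_cancel y⁻¹ h)
    have h2 := hφ.2
    rw [em, mul_smul, mul_smul, smul_eq_iff_eq_inv_smul] at h2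
    exact h2
  have t1 : ∀ φ ∈ T, ∀ i, i < m → (x * a) ^ i • φ = a ^ i • φ := by
    intro φ hφ i
    induction i with
    | zero => intro _; simp
    | succ i ih =>
      intro hi
      rw [pow_succ', mul_smul, ih (by omega), mul_smul, ← mul_smul a, ← pow_succ']
      exact hx _ (pw ha _ φ (TΦ hφ)) (disj _ (by omega) hi φ hφ)
  have t2 : ∀ φ ∈ T, (x * a) ^ m • φ = (x * a ^ m) • φ := by
    intro φ hφ
    obtain ⟨k, rfl⟩ : ∃ k, m = k + 1 := ⟨m - 1, by omega⟩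
    rw [pow_succ', mul_smul, t1 φ hφ k (by omega), mul_smul, ← mul_smul a, ← pow_succ', mul_smul]
  have fx : ∀ (g : G) (φ : Ω) (i : ℕ), g ^ m • φ = φ → g ^ m • g ^ i • φ = g ^ i • φ := fun g φ i h => by
    rw [← mul_smul, pow_mul_comm, mul_smul, h]
  constructor
  · rintro ⟨φ, hφ, h⟩
    by_contra n
    have nT : ∀ ψ ∈ Fb, ψ ∉ T := fun ψ hψ hT => n ⟨ψ, hT, by rw [← t2 ψ hT]; exact hψ.2⟩
    have sub : Fb ⊆ Fa := by
      intro ψ hψ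
      have k : ∀ i : ℕ, (x * a) ^ i • ψ = a ^ i • ψ := by
        intro i
        induction i with
        | zero => simp
        | succ i ih =>
          have m1 : (x * a) ^ (i + 1) • ψ ∈ Fb := ⟨pw hb _ ψ hψ.1, fx _ _ _ hψ.2⟩
          have e1 : (x * a) ^ (i + 1) • ψ = x • a ^ (i + 1) • ψ := by
            rw [pow_succ', mul_smul, ih, mul_smul, ← mul_smul a, ← pow_succ']
          have e2 := hx _ m1.1 (nT _ m1)
          rw [e1] at e2 ⊢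
          exact smul_left_cancel x e2
      exact ⟨hψ.1, by rw [← k m]; exact hψ.2⟩
    have eq : Fb = Fa := Set.eq_of_subset_of_ncard_le sub c1
    exact nT φ (eq ▸ ⟨TΦ hφ, h⟩) hφ
  · rintro ⟨φ, hφ, h⟩
    by_contra n
    have nT : ∀ ψ ∈ Fa, ψ ∉ T := fun ψ hψ hT => n ⟨ψ, hT, hψ.2⟩
    have sub : Fa ⊆ Fb := by
      intro ψ hψ
      have k : ∀ i : ℕ, (x * a) ^ i • ψ = a ^ i • ψ := by
        intro i
        induction i with
        | zero => simp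
        | succ i ih =>
          have m1 : a ^ (i + 1) • ψ ∈ Fa := ⟨pw ha _ ψ hψ.1, fx _ _ _ hψ.2⟩
          rw [pow_succ', mul_smul, ih, mul_smul, ← mul_smul a, ← pow_succ']
          exact hx _ m1.1 (nT _ m1)
      exact ⟨hψ.1, by rw [k m]; exact hψ.2⟩
    have eq : Fa = Fb := Set.eq_of_subset_of_ncard_le sub c2
    exact nT φ (eq ▸ ⟨TΦ hφ, by rw [t2 φ hφ]; exact h⟩) hφ

end Act

variable {X : Type*} [Group X] [Finite X] {a e e' w x y β : X} {m : ℕ}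

theorem wr {Φ T : Set X} (e : y * a * y⁻¹ = x * a) (hy : ∀ φ ∈ Φ, y * φ * y⁻¹ ∈ Φ) (ha : ∀ φ ∈ Φ, a * φ * a⁻¹ ∈ Φ)
    (hx' : ∀ φ ∈ Φ, x * φ * x⁻¹ ∈ Φ) (hx : ∀ φ ∈ Φ, φ ∉ T → x * φ * x⁻¹ = φ) (TΦ : T ⊆ Φ) (m0 : 0 < m)
    (disj : ∀ i, 0 < i → i < m → ∀ φ ∈ T, a ^ i * φ * (a ^ i)⁻¹ ∉ T) :
    (∃ φ ∈ T, a ^ m * φ * (a ^ m)⁻¹ = φ) ↔ ∃ φ ∈ T, x * a ^ m * φ * (x * a ^ m)⁻¹ = φ :=
  haveI : Finite (ConjAct X) := inferInstanceAs (Finite X)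
  act (G := ConjAct X) (Ω := X) (a := ConjAct.toConjAct a) (x := ConjAct.toConjAct x) (y := ConjAct.toConjAct y)
    e hy ha hx' hx TΦ m0 disj

theorem flip {N : Subgroup X} (aN : a ∈ N) (xN : x ∈ N) (yN : y ∈ N) (c : y * a * y⁻¹ = x * a) (ne : e ≠ e')
    (xe : x * e * x⁻¹ = e') (xe' : x * e' * x⁻¹ = e)
    (hB : ∀ g ∈ N, g * e * g⁻¹ = e ∧ g * e' * g⁻¹ = e' ∨ g * e * g⁻¹ = e' ∧ g * e' * g⁻¹ = e ∨
      Commute x (g * e * g⁻¹) ∧ Commute x (g * e' * g⁻¹)) : False := by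
  classical
  set Φ : Set X := {φ | ∃ g ∈ N, g * e * g⁻¹ = φ} with hΦ
  set T : Set X := {e, e'} with hT
  have inv : ∀ n ∈ N, ∀ φ ∈ Φ, n * φ * n⁻¹ ∈ Φ := by
    rintro n hn φ ⟨g, hg, rfl⟩
    exact ⟨n * g, N.mul_mem hn hg, by group⟩
  have fx : ∀ φ, Commute x φ → x * φ * x⁻¹ = φ := fun φ h => by rw [h.eq, mul_inv_cancel_right]
  have nc : ∀ φ, Commute x φ → φ ∉ T := by
    intro φ h hφ
    have h1 := fx φ h
    rcases hφ with rfl | rfl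
    · exact ne (h1.symm.trans xe)
    · exact ne (xe'.symm.trans h1)
  have eT : e ∈ T := Or.inl rfl
  have eT' : e' ∈ T := Or.inr rfl
  have ex : ∃ k, 0 < k ∧ a ^ k * e * (a ^ k)⁻¹ ∈ T :=
    ⟨orderOf a, orderOf_pos a, by rw [pow_orderOf_eq_one]; simpa using eT⟩
  have hm := Nat.find_spec ex
  have mn : ∀ i, 0 < i → i < Nat.find ex → a ^ i * e * (a ^ i)⁻¹ ∉ T :=
    fun i i0 hi h => Nat.find_min ex hi ⟨i0, h⟩
  have key := wr (m := Nat.find ex) (Φ := Φ) (T := T) c (inv y yN) (inv a aN) (inv x xN)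
    (by
      rintro φ ⟨g, hg, rfl⟩ n
      rcases hB g hg with h | h | h
      · exact absurd (h.1.symm ▸ eT) n
      · exact absurd (h.1.symm ▸ eT') n
      · exact fx _ h.1)
    (by
      rintro φ (rfl | rfl)
      · exact ⟨1, N.one_mem, by simp⟩
      · exact ⟨x, xN, xe⟩) hm.1
    (by
      rintro i i0 hi φ (rfl | rfl)
      · exact mn i i0 hi
      · rcases hB (a ^ i) (N.pow_mem aN i) with h | h | h
        · exact absurd (h.1.symm ▸ eT) (mn i i0 hi)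
        · exact absurd (h.1.symm ▸ eT') (mn i i0 hi)
        · exact nc _ h.2)
  have sp : ∀ g φ : X, x * g * φ * (x * g)⁻¹ = x * (g * φ * g⁻¹) * x⁻¹ := fun g φ => by group
  rcases hB (a ^ Nat.find ex) (N.pow_mem aN _) with h | h | h
  · obtain ⟨φ, hφ, h1⟩ := key.1 ⟨e, eT, h.1⟩
    rw [sp] at h1
    rcases hφ with rfl | rfl
    · rw [h.1, xe] at h1; exact ne h1.symm
    · rw [h.2, xe'] at h1; exact ne h1
  · obtain ⟨φ, hφ, h1⟩ := key.2 ⟨e, eT, by rw [sp, h.1, xe']⟩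
    rcases hφ with rfl | rfl
    · rw [h.1] at h1; exact ne h1.symm
    · rw [h.2] at h1; exact ne h1
  · exact nc _ h.1 hm.2

end CL.FA.WrB
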